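import Cfsg.Agent.H13.TwFus
import Cfsg.Agent.H13.WAll
import Cfsg.Agent.H38.Order

/-! Automizers of toral subgroups of Chevalley groups, lifting of normalisers through a surjection. -/

set_option autoImplicit false

namespace Cfsg.Agent.H13

open Cfsg.Lie Cfsg.Lie.ChevalleyDatum Cfsg.Agent.H37 Cfsg.Agent.H38 Subgroup
open scoped Matrix

theorem lift_norm {G S : Type*} [Group G] [Finite G] [Group S] {p : ℕ} [Fact p.Prime] (φ : G →* S)
    (L : Subgroup G) {E : Subgroup S} (hE : IsPGroup p E) (hEL : E ≤ L.map φ) :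
    ∃ Q : Subgroup G, H4.IsSylowIn p Q (L ⊓ E.comap φ) ∧ Q.map φ = E ∧
      ∀ g ∈ L, (∀ e ∈ E, φ g * e * (φ g)⁻¹ ∈ E) →
        ∃ g' ∈ L, (∀ x ∈ Q, g' * x * g'⁻¹ ∈ Q) ∧ φ g' = φ g := by
  obtain ⟨T₀, hT₀V, hT₀, hT₀Q⟩ := H22.exists_isPGroup_map_eq φ hE hEL
  obtain ⟨Q, hQ, hTQ⟩ := H4.IsSylowIn.exists_le (K := L ⊓ E.comap φ) hT₀
    (le_inf hT₀V (map_le_iff_le_comap.1 hT₀Q.le))
  have hm : Q.map φ = E := le_antisymm (map_le_iff_le_comap.2 (hQ.le.trans inf_le_right))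
    (hT₀Q.ge.trans (map_mono hTQ))
  refine ⟨Q, hQ, hm, fun g hg hn => ?_⟩
  obtain ⟨n, hn', h⟩ := hQ.frattini (g := g) (H4.mem_normalizer_of_conj_mem fun z hz =>
    ⟨L.mul_mem (L.mul_mem hg hz.1) (L.inv_mem hg), by
      change φ (g * z * g⁻¹) ∈ E
      rw [map_mul, map_mul, map_inv]; exact hn _ hz.2⟩)
  obtain ⟨x, hx, e⟩ := hm.ge hn'.2
  refine ⟨x⁻¹ * (n * g), mul_mem (inv_mem (hQ.le hx).1) (mul_mem hn'.1 hg), fun y hy => ?_, by
    rw [map_mul, map_mul, map_inv, e, inv_mul_cancel_left]⟩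
  exact (mem_normalizer_iff.1 (mul_mem (inv_mem (le_normalizer hx)) h) y).1 hy

theorem exists_conj_le {G : Type*} [Group G] [Finite G] {p : ℕ} [hp : Fact p.Prime] {D C Q : Subgroup G}
    (hD : ¬ p ∣ D.index) (hDC : D ≤ C) (hQ : IsPGroup p Q) (hQC : Q ≤ C) :
    ∃ c ∈ C, ∀ x ∈ Q, c * x * c⁻¹ ∈ D := by
  obtain ⟨P, hP, -⟩ := H4.IsSylowIn.exists_le (p := p) (Q := ⊥) (K := D) IsPGroup.of_bot bot_le
  have hP' : ¬ p ∣ P.index := by
    rw [← relIndex_mul_index hP.le]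
    exact fun h => (hp.out.dvd_mul.1 h).elim hP.not_dvd hD
  obtain ⟨c, hc, h⟩ := (H4.IsSylowIn.of_sylow_le (hP.isPGroup.toSylow hP') (hP.le.trans hDC)).exists_conj hQ hQC
  exact ⟨c, hc, fun x hx => hP.le (h x hx)⟩

theorem isPGroup_zpowers_of_pow {S : Type*} [Group S] {p : ℕ} {a : S} (ha : a ^ p = 1) :
    IsPGroup p (zpowers a) := by
  rintro ⟨_, j, rfl⟩
  refine ⟨1, Subtype.ext ?_⟩
  change (a ^ j) ^ p ^ 1 = 1
  rw [← zpow_natCast, ← zpow_mul, mul_comm, zpow_mul, zpow_natCast, pow_one, ha, one_zpow]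

theorem conj_pow_pow {S : Type*} [Group S] {a b : S} {k : ℕ} (hb : b * a * b⁻¹ = a ^ k) (i : ℕ) :
    b ^ i * a * (b ^ i)⁻¹ = a ^ k ^ i := by
  induction i with
  | zero => simp
  | succ i ih =>
    calc _ = b * (b ^ i * a * (b ^ i)⁻¹) * b⁻¹ := by rw [pow_succ']; simp only [mul_inv_rev, mul_assoc]
      _ = _ := by rw [ih, ← conj_pow, hb, ← pow_mul, ← pow_succ']

/-- embeddings of alternating groups -/
theorem exists_alt_hom {n r : ℕ} (h : n ≤ r) :
    ∃ ι : alternatingGroup (Fin n) →* alternatingGroup (Fin r), Function.Injective ι := by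
  classical
  let f := Equiv.Perm.extendDomainHom (Fin.castLEEmb h).toEquivRange
  refine ⟨(f.comp (alternatingGroup (Fin n)).subtype).codRestrict _ fun x =>
    Equiv.Perm.mem_alternatingGroup.2 ((Equiv.Perm.sign_extendDomain _ _).trans x.2), fun a b e => Subtype.ext
      (Equiv.Perm.extendDomainHom_injective _ (congrArg Subtype.val e))⟩

variable {D : ChevalleyDatum} [Chev D] {hD : IsChev D}

theorem cov_pow {k Γ : Type*} [Field k] [Group Γ] (A : Cov hD k Γ) {g : Γ} {Q : Set Γ} (hQ : Q ⊆ A.X.H)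
    (hn : ∀ x ∈ Q, g * x * g⁻¹ ∈ Q) : ∃ w ∈ (rs D).W, ∀ i : ℕ,
      (w ^ i = 1 → ∀ x ∈ Q, g ^ i * x * (g ^ i)⁻¹ = x) ∧
      ((∀ r, (w ^ i) r = (rs D).neg r) → ∀ x ∈ Q, g ^ i * x * (g ^ i)⁻¹ = x⁻¹) := by
  obtain ⟨n, w, hw, h⟩ := exists_rep_conj A.faithful (A.mem_grp g) hQ fun t ht => hQ (hn t ht)
  have key : ∀ i : ℕ, A.X.Rep (n ^ i) (w ^ i) ∧ ∀ x ∈ Q, g ^ i * x * (g ^ i)⁻¹ ∈ Q ∧
      g ^ i * x * (g ^ i)⁻¹ = n ^ i * x * (n ^ i)⁻¹ := by
    intro i
    induction i with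
    | zero => exact ⟨by simpa using A.X.rep_one, fun x hx => by simpa using hx⟩
    | succ i ih =>
      refine ⟨by rw [pow_succ, pow_succ]; exact ih.1.mul hw, fun x hx => ?_⟩
      have e : g ^ (i + 1) * x * (g ^ (i + 1))⁻¹ = g * (g ^ i * x * (g ^ i)⁻¹) * g⁻¹ := by
        rw [pow_succ']; group
      rw [e]
      refine ⟨hn _ (ih.2 x hx).1, ?_⟩
      rw [← h _ (ih.2 x hx).1, (ih.2 x hx).2, pow_succ']; group
  refine ⟨w, hw.mem_W, fun i => ⟨fun e x hx => ?_, fun e x hx => ?_⟩⟩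
  · rw [((key i).2 x hx).2, A.H_comm (e ▸ (key i).1).mem_H (hQ hx), mul_inv_cancel_right]
  · obtain ⟨c, rfl⟩ := A.mem_H_iff.1 (hQ hx)
    have hW := (key i).1.mem_W
    have h1 : wM (w ^ i) = Matrix.diagonal fun _ => -1 := by
      ext a b
      have : (Pi.single a 1 : Fin D.rank → ℤ) ᵥ* wM (w ^ i) = - Pi.single a 1 := pr_ext fun r => by
        obtain ⟨r, rfl⟩ := (w ^ i).surjective r
        rw [pr_wM hW, e, pr_neg, map_neg, neg_neg]
      have := congrFun this b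
      rw [Matrix.single_one_vecMul] at this
      rw [Matrix.diagonal_apply]
      refine this.trans ?_
      by_cases hab : a = b
      · simp [hab]
      · simp [hab, Ne.symm hab]
    rw [((key i).2 _ hx).2, A.rep_conj_torus (key i).1, ← map_inv, h1]
    congr 1
    funext j
    rw [zact_diagonal]; simp

theorem cov_pow_hom {k Γ G : Type*} [Field k] [Group Γ] [Group G] (A : Cov hD k Γ) (j : G →* Γ)
    (hj : Function.Injective j) (c : Γ) {g : G} {Q : Set G} (hQ : ∀ x ∈ Q, c * j x * c⁻¹ ∈ A.X.H)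
    (hn : ∀ x ∈ Q, g * x * g⁻¹ ∈ Q) : ∃ w ∈ (rs D).W, ∀ i : ℕ,
      (w ^ i = 1 → ∀ x ∈ Q, g ^ i * x * (g ^ i)⁻¹ = x) ∧
      ((∀ r, (w ^ i) r = (rs D).neg r) → ∀ x ∈ Q, g ^ i * x * (g ^ i)⁻¹ = x⁻¹) := by
  let j' : G →* Γ := (MulAut.conj c).toMonoidHom.comp j
  have hj' : Function.Injective j' := (MulAut.conj c).injective.comp hj
  obtain ⟨w, hw, h⟩ := cov_pow A (g := j' g) (Q := j' '' Q) (by rintro _ ⟨x, hx, rfl⟩; exact hQ x hx) (by
    rintro _ ⟨x, hx, rfl⟩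
    exact ⟨_, hn x hx, by rw [map_mul, map_mul, map_inv]⟩)
  refine ⟨w, hw, fun i => ⟨fun e x hx => hj' ?_, fun e x hx => hj' ?_⟩⟩
  · rw [map_mul, map_mul, map_inv, map_pow]; exact (h i).1 e _ ⟨x, hx, rfl⟩
  · rw [map_mul, map_mul, map_inv, map_pow, map_inv]; exact (h i).2 e _ ⟨x, hx, rfl⟩

variable (hD) in
theorem index_adj_H (K : Type*) [Field K] [Finite K] :
    (adjCov hD K).X.H.index = Nat.card K ^ (D.nroots / 2) * (H39.RD hD).poin Set.univ (Nat.card K) := by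
  have hθ : ∀ r t, (adjCov hD K).θ ((adjCov hD K).X.x r t) = (mg hD K).x r (RingHom.id K t) := (adjCov hD K).θ_X
  have h1 : (adjCov hD K).X.H.map (D.group K).subtype = D.diagonalSubgroup K := by
    rw [← mg_H hD]
    refine le_antisymm (map_le_iff_le_comap.2 fun g hg => smap_mem_H hθ hg) ?_
    rw [RG.H_eq, closure_le]
    rintro _ ⟨i, c, hc, rfl⟩
    exact ⟨_, (adjCov hD K).X.h_mem_H _ hc, smap_h hθ _ _⟩
  have h2 := (adjCov hD K).X.H.card_mul_index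
  haveI : Finite (D.group K) := inferInstance
  rw [card_group hD, ← h1, card_map_of_injective (D.group K).subtype_injective] at h2
  exact Nat.eq_of_mul_eq_mul_left Nat.card_pos (h2.trans (by ring))

theorem qInt_modEq {q l : ℕ} (h : q ≡ 1 [MOD l]) (d : ℕ) : H39.qInt q d ≡ d [MOD l] := by
  refine (Nat.ModEq.sum (g := fun _ => 1) fun i _ => ?_).trans (by simp; rfl)
  simpa using h.pow i

theorem groupMap_injective {F K : Type*} [Field F] [Field K] (f : F →+* K) :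
    Function.Injective (H39.groupMap D f) := fun a b e => by
  have := congrArg (fun g : D.group K => ((g : GL D.Idx K) : Matrix D.Idx D.Idx K)) e
  simp only [H39.groupMap_coe] at this
  exact Subtype.ext (Units.ext (Matrix.map_injective f.injective this))

end Cfsg.Agent.H13
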