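import Cfsg.Agent.H13.SecA8
import Cfsg.Agent.H40.D4a

/-! Alternating sections of the triality groups. -/

set_option autoImplicit false

namespace Cfsg.Agent.H13

open Cfsg.Lie Cfsg.Agent.H37 Cfsg.Agent.H38 Cfsg.Agent.H40 Subgroup

theorem tw_w_pow {A Φ I : Type*} [Group A] (T : Tw A Φ I) {m : A} (hm : m ∈ T.N) (k : ℕ) :
    T.w (m ^ k) = T.w m ^ k := by
  induction k with
  | zero => simpa using T.w_one
  | succ k ih => rw [pow_succ, T.w_mul _ (pow_mem hm k) _ hm, ih, pow_succ]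

theorem tw_pow_comm' {A Φ I : Type*} [Group A] [Finite Φ] (T : Tw A Φ I) {e : ℕ} (he : ∀ ω ∈ T.W1, ω ^ e = 1)
    (hH : ∀ a ∈ T.H, ∀ b ∈ T.H, a * b = b * a) {g : A} (hg : g ∈ T.Fix) {Q : Set A}
    (hQ : ∀ x ∈ Q, x ∈ T.H) (hn : ∀ x ∈ Q, g * x * g⁻¹ ∈ Q) {x : A} (hx : x ∈ Q) :
    g ^ e * x * (g ^ e)⁻¹ = x := by
  obtain ⟨m, hm, hmf, h⟩ := tw_exists_N_conj T hg
  have key : ∀ k : ℕ, g ^ k * x * (g ^ k)⁻¹ ∈ Q ∧ g ^ k * x * (g ^ k)⁻¹ = m ^ k * x * (m ^ k)⁻¹ := by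
    intro k
    induction k with
    | zero => simpa using hx
    | succ k ih =>
      have e : g ^ (k + 1) * x * (g ^ (k + 1))⁻¹ = g * (g ^ k * x * (g ^ k)⁻¹) * g⁻¹ := by
        rw [pow_succ']; group
      rw [e]
      refine ⟨hn _ ih.1, ?_⟩
      rw [h _ (hQ _ ih.1) (hQ _ (hn _ ih.1)), ih.2, pow_succ']; group
  have h2 : m ^ e ∈ T.H :=
    (T.w_eq_one _ (pow_mem hm _)).1 (by rw [tw_w_pow T hm]; exact he _ (T.mem_W1.2 ⟨m, hm, hmf, rfl⟩))
  rw [(key _).2, hH _ h2 _ (hQ x hx)]; group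

theorem okW1 : allOK 24 2 2 GsD4 [85, 42, 53, 21, 26, 10, 13, 5, 6, 2, 3, 1] (fun v => powIs 24 6 (fun r => r) v &&
    (!(powIs 24 3 (fun r => r) v) || powIs 24 1 (fun r => r) v || (Nat.beq (dec v 2) 15 && Nat.beq (dec v 1) 23) ||
      (Nat.beq (dec v 15) 2 && Nat.beq (dec v 23) 1))) = true := by
  decide +kernel

variable {K : Type*} [Field K] (φ : K →+* K)

theorem W1_D4 {ω : Equiv.Perm (Fin chevD4.nroots)} (h : ω ∈ (TD φ).mt.W1) : ω ^ 6 = 1 ∧ (ω ^ 3 = 1 → ω = 1 ∨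
    ((ω ⟨2, by decide⟩ : ℕ) = 15 ∧ (ω ⟨1, by decide⟩ : ℕ) = 23) ∨
    ((ω ⟨15, by decide⟩ : ℕ) = 2 ∧ (ω ⟨23, by decide⟩ : ℕ) = 1)) := by
  have := all_of_allOK (n := 24) (by norm_num) (fun j : Fin 2 => (TD φ).mt.w ((TD φ).mt.n j))
    (fun j r => (tabD4 j r r.2).trans ((TD φ).mt_w_n j r).symm) (TD φ).mt.w_sq okW1 h
  simp only [Bool.and_eq_true, Bool.or_eq_true, Bool.not_eq_true', Nat.beq_eq] at this
  have hd := dec_pcode (n := 24) (by norm_num) ω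
  refine ⟨Equiv.ext fun r => Fin.ext (powIs_spec (by norm_num) this.1 r), fun h3 => ?_⟩
  rcases this.2 with ((h | h) | h) | h
  · refine absurd ((H39.allLT_iff _ _).2 fun r hr => ?_) (Bool.eq_false_iff.1 h)
    exact Nat.beq_eq.mpr ((itr_pcode (n := chevD4.nroots) (by decide) ω 3 ⟨r, hr⟩).trans (by rw [h3]; rfl))
  · exact .inl (Equiv.ext fun r => Fin.ext (by
      have := powIs_spec (n := chevD4.nroots) (by decide) h r
      rwa [pow_one] at this))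
  · exact .inr (.inl ⟨(hd ⟨2, by decide⟩).symm.trans h.1, (hd ⟨1, by decide⟩).symm.trans h.2⟩)
  · exact .inr (.inr ⟨(hd ⟨15, by decide⟩).symm.trans h.1, (hd ⟨23, by decide⟩).symm.trans h.2⟩)

theorem chi_of_comm {m t : GL chevD4.Idx K} (hm : m ∈ (SD K).N) {c : ℕ → Kˣ} (hc : IsH (SD K) t c)
    (h : m * t = t * m) (r : Fin chevD4.nroots) : chi chevD4 c (wN (SD K) m r) = chi chevD4 c r := by
  obtain ⟨a, ha, e⟩ := (acts_wN (SD K) hm).1 r
  have h1 : t * (m * (SD K).x r 1 * m⁻¹) * t⁻¹ = m * (t * (SD K).x r 1 * t⁻¹) * m⁻¹ := by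
    calc _ = (t * m) * (SD K).x r 1 * (t * m)⁻¹ := by group
      _ = _ := by rw [← h]; group
  rw [hc.2 r r.2, e, e, hc.2 _ (Fin.is_lt _)] at h1
  have := x_inj (matRel_sep _ _) (Fin.is_lt _) h1
  rw [mul_one, mul_one, mul_comm] at this
  exact Units.ext (mul_left_cancel₀ ha this)

theorem pow12_D4 (p : ℕ) [Fact p.Prime] [CharP K p] [Finite K] (hp : 3 ≠ p) {G : Type*} [Group G]
    (ι₀ : G →* chevD4.group K) (hι₀ : Function.Injective ι₀) (F : V3 →* G) (g : G)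
    (hg : ∀ v, ∃ v', g * F v * g⁻¹ = F v') (v : V3) : g ^ 12 * F v * (g ^ 12)⁻¹ = F v := by
  let k := AlgebraicClosure K
  let ι := (H39.groupMap chevD4 (algebraMap K k)).comp ι₀
  have hι : Function.Injective ι := (groupMap_injective _).comp hι₀
  have hA : (scCov isChev_D4 k).SC := torus_injective_D4 k
  have hF := scCov_hasField isChev_D4 k
  have hk := algClosure_alg K p
  set π := H39.stProj isChev_D4 k
  have hz : ∀ z, π z = 1 → z ^ 2 = 1 ∧ ∀ y, z * y = y * z := fun z hz => by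
    have h1 : z ∈ π.ker := hz
    rw [H39.stProj_ker] at h1
    refine ⟨?_, fun y => (mem_center_iff.1 h1 y).symm⟩
    rw [H39.st_center isChev_D4] at h1
    obtain ⟨c, hc, rfl⟩ := h1
    obtain ⟨B, hB⟩ := H64.hasInv_D4
    rw [← map_pow, show c ^ 2 = 1 from funext fun i => by
      simpa using H39.prod_zpow_eq_one hc _ _ fun j => hB j i, map_one]
  have hl : ∀ v : V3, ∃ x, x ^ 3 = 1 ∧ π x = ι (F v) := fun v => by
    obtain ⟨x, hx⟩ := H39.stProj_surjective isChev_D4 (ι (F v))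
    have h3 : v ^ 3 = 1 := (by decide : ∀ v : V3, v ^ 3 = 1) v
    have h4 : π x ^ 3 = 1 := by rw [hx, ← map_pow, ← map_pow, h3, map_one, map_one]
    refine ⟨x ^ 4, ?_, by rw [map_pow, pow_succ, h4, one_mul, hx]⟩
    rw [← pow_mul, show 4 * 3 = 3 * 2 * 2 from rfl, pow_mul, pow_mul, (hz (x ^ 3) (by rw [map_pow, h4])).1, one_pow]
  obtain ⟨x, hx, ex⟩ := hl (.ofAdd (1, 0))
  obtain ⟨y, hy, ey⟩ := hl (.ofAdd (0, 1))
  have hxy : x * y = y * x := by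
    obtain ⟨h1, h2⟩ := hz (x * y * x⁻¹ * y⁻¹) (by
      rw [map_mul, map_mul, map_mul, map_inv, map_inv, ex, ey, ← map_mul, ← map_mul, mul_comm, map_mul, map_mul]
      group)
    have h3 : (x * y * x⁻¹ * y⁻¹ * y) ^ 3 = 1 := by rw [inv_mul_cancel_right, conj_pow, hy]; group
    rw [Commute.mul_pow (h2 y), hy, mul_one, pow_succ, h1, one_mul, mul_inv_eq_one, mul_inv_eq_iff_eq_mul] at h3
    exact h3
  obtain ⟨a, ha⟩ := Cov.conj_H hA hF p hk (m := 3) ((Nat.coprime_primes (by norm_num) Fact.out).2 hp) hx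
  have hf : IsOfFinOrder (a⁻¹ * x * a) := isOfFinOrder_iff_pow_eq_one.2 ⟨3, by norm_num, by
    simpa [hx] using conj_pow (a := a⁻¹) (b := x) (i := 3)⟩
  have hs : a⁻¹ * y * a ∈ centralizer {a⁻¹ * x * a} := by
    rintro _ rfl
    calc _ = a⁻¹ * (x * y) * a := by group
      _ = _ := by rw [hxy]; group
  have hs3 : (a⁻¹ * y * a) ^ 3 ^ 1 = 1 := by simpa [hy] using conj_pow (a := a⁻¹) (b := y) (i := 3)
  obtain ⟨b, hb, h1⟩ := Cov.conj_B_of_prime_pow hA hF p hk ha hf (by norm_num) hp hs hs3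
  obtain ⟨c, hc, h2⟩ := Cov.conj_H_of_mem_B hF p hk ha (l := 3) (by norm_num) hp
    (mul_mem (mul_mem (inv_mem hb) hs) hb) h1 (a := 1)
    (by have := conj_pow (a := b⁻¹) (b := a⁻¹ * y * a) (i := 3 ^ 1); rwa [hs3, mul_one, mul_inv_cancel, inv_inv] at this)
  have hπ : ∀ r t, π ((scCov isChev_D4 k).X.x r t) = (adjCov isChev_D4 k).X.x r (RingHom.id k t) := fun r t =>
    Subtype.ext (((scCov isChev_D4 k).θ_X r t).trans (adjCov_x _ _ r t).symm)
  have hx' : π (a * b * c)⁻¹ * ι (F (.ofAdd (1, 0))) * (π (a * b * c)⁻¹)⁻¹ ∈ (adjCov isChev_D4 k).X.H := by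
    rw [← ex, ← map_inv, ← map_mul, ← map_mul]
    refine smap_mem_H hπ ?_
    have := mul_mem hb hc _ rfl
    rwa [show (a * b * c)⁻¹ * x * (a * b * c)⁻¹⁻¹ = (b * c)⁻¹ * (a⁻¹ * x * a * (b * c)) by group, this,
      inv_mul_cancel_left]
  have hy' : π (a * b * c)⁻¹ * ι (F (.ofAdd (0, 1))) * (π (a * b * c)⁻¹)⁻¹ ∈ (adjCov isChev_D4 k).X.H := by
    rw [← ey, ← map_inv, ← map_mul, ← map_mul]
    refine smap_mem_H hπ ?_
    convert h2 using 1
    group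
  obtain ⟨w, hw, h⟩ := cov_pow_hom (adjCov isChev_D4 k) ι hι (π (a * b * c)⁻¹) (g := g) (Q := Set.range F) (by
    rintro _ ⟨v, rfl⟩
    rw [← linV_e v, linV, map_mul F, map_mul ι, ← conj_mul, map_pow, map_pow, map_pow, map_pow, ← conj_pow, ← conj_pow]
    exact mul_mem (pow_mem hx' _) (pow_mem hy' _)) (by
    rintro _ ⟨v, rfl⟩
    exact (hg v).imp fun _ h => h.symm)
  exact (h 12).1 (weyl_D4 hw) _ ⟨v, rfl⟩

variable {φ} [Fintype K] {q : ℕ} (hq : IsPrimePow q) (hK : Fintype.card K = q ^ 3)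

variable (K q) in
/-- the diagonal subgroup of the triality group -/
def DT : Subgroup (twistedD4 K q) := (chevD4.diagonalSubgroup K).subgroupOf (twistedD4 K q)

theorem DT_comm : ∀ a ∈ DT K q, ∀ b ∈ DT K q, a * b = b * a := fun _ ha _ hb =>
  Subtype.ext (mg_H_comm isChev_D4 K (by rw [mg_H]; exact ha) (by rw [mg_H]; exact hb))

include hq hK

theorem DT_index : (DT K q).index = q ^ 12 * (q + 1) * (q ^ 3 + 1) * (q ^ 8 + q ^ 4 + 1) := by
  obtain ⟨φ, hφ⟩ := exists_frob hq hK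
  have h1 := (DT K q).card_mul_index
  rw [card_D4 hq hK hφ, DT, ← inf_subgroupOf_right, Nat.card_congr (subgroupOfEquivOfLe inf_le_right).toEquiv,
    card_H1_D4 hq hK hφ, inf_subgroupOf_right] at h1
  obtain ⟨r, rfl⟩ : ∃ r, q = r + 2 := ⟨q - 2, by have := hq.two_le; omega⟩
  refine Nat.eq_of_mul_eq_mul_left (show 0 < (r + 2 - 1) ^ 2 * ((r + 2) ^ 2 + (r + 2) + 1) by simp) (h1.trans ?_)
  rw [show (r + 2) ^ 2 - 1 = (r + 1) * (r + 2 + 1) from Nat.sub_eq_of_eq_add (by ring),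
    show (r + 2) ^ 6 - 1 = (r + 1) * ((r + 2) ^ 2 + (r + 2) + 1) * ((r + 2) ^ 3 + 1) from Nat.sub_eq_of_eq_add (by ring),
    show r + 2 - 1 = r + 1 from rfl]
  ring

theorem DT_pow (R : Set (twistedD4 K q)) (hR : ∀ x ∈ R, x ∈ DT K q) (g : twistedD4 K q)
    (hg : ∀ x ∈ R, g * x * g⁻¹ ∈ R) : ∀ x ∈ R, g ^ 6 * x * (g ^ 6)⁻¹ = x := fun x hx => by
  obtain ⟨φ, hφ⟩ := exists_frob hq hK
  refine Subtype.ext (tw_pow_comm' (TD φ).mt (fun ω h => (W1_D4 φ h).1) (fun a ha b hb => H_comm (matRel_adj _ _) ha hb)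
    ((Fix_D4 (frob_iter_self hK hφ) hφ).ge g.2) (Q := Subtype.val '' R) ?_ ?_ ⟨x, hx, rfl⟩)
  · rintro _ ⟨y, hy, rfl⟩
    rw [TwD.mt_H']; exact hR y hy
  · rintro _ ⟨y, hy, rfl⟩
    exact ⟨_, hg y hy, rfl⟩

variable {H S : Type*} [Group H] [Finite H] [Group S] (j : H →* twistedD4 K q) (hj : Function.Injective j)
  (ψ : H →* S) (hψ : Function.Surjective ψ)
include hj hψ

theorem d4_five (h5 : q ≡ 1 [MOD 5]) {a b : S} (ha : a ^ 5 = 1) (hb : b * a * b⁻¹ = a ^ 2) : a = 1 := by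
  haveI : Fact (Nat.Prime 5) := ⟨by norm_num⟩
  have hI : ¬ 5 ∣ (DT K q).index := by
    rw [DT_index hq hK]
    have := (((h5.pow 12).mul (h5.add_right 1)).mul ((h5.pow 3).add_right 1)).mul
      (((h5.pow 8).add (h5.pow 4)).add_right 1)
    exact fun h => absurd ((this.dvd_iff dvd_rfl).1 h) (by norm_num)
  have := sec_fus (p := 5) (e := 6) (G := H) (fun Q hQ g hg x hx => by
    obtain ⟨c, -, hc⟩ := exists_conj_le hI le_top (hQ.map j) le_top
    let j' := (MulAut.conj c).toMonoidHom.comp j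
    have := DT_pow hq hK (j' '' Q) (by rintro _ ⟨y, hy, rfl⟩; exact hc _ ⟨y, hy, rfl⟩) (j' g) (by
      rintro _ ⟨y, hy, rfl⟩
      exact ⟨_, hg y hy, by rw [map_mul, map_mul, map_inv]⟩) _ ⟨x, hx, rfl⟩
    rw [← map_pow, ← map_inv, ← map_mul, ← map_mul] at this
    exact ((MulAut.conj c).injective.comp hj) this) ⊤ (ψ.comp (⊤ : Subgroup H).subtype)
    (fun s => (hψ s).elim fun x h => ⟨⟨x, trivial⟩, h⟩) ha hb
  have h1 : a ^ 63 = 1 := mul_right_cancel (b := a) (by rw [← pow_succ, one_mul]; exact this)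
  simpa using pow_gcd_eq_one.2 ⟨ha, h1⟩

theorem d4_three (h3 : q ≡ 1 [MOD 3]) (f : V3 →* S) (hf : Function.Injective f) {c d : S}
    (hd : ∀ v, d * f v * d⁻¹ = f (rotJ v)) (hc : ∀ v, c ^ 2 * f v * (c ^ 2)⁻¹ = f (reflS v)) : False := by
  haveI : Fact (Nat.Prime 3) := ⟨by norm_num⟩
  obtain ⟨φ, hφ⟩ := exists_frob hq hK
  have hF := Fix_D4 (frob_iter_self hK hφ) hφ
  let N1 : Subgroup (twistedD4 K q) := (TD φ).mt.N.subgroupOf _
  let π : N1 →* Equiv.Perm (Fin chevD4.nroots) :=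
    MonoidHom.mk' (fun m => (TD φ).mt.w m.1.1) fun a b => (TD φ).mt.w_mul _ a.2 _ b.2
  have hker : π.ker = (DT K q).subgroupOf N1 := Subgroup.ext fun m =>
    ((TD φ).mt.w_eq_one _ m.2).trans (by rw [TwD.mt_H']; rfl)
  have hran : π.range = (TD φ).mt.W1 := Subgroup.ext fun ω => by
    rw [Tw.mem_W1]
    exact ⟨fun ⟨m, e⟩ => ⟨_, m.2, hF.ge m.1.2, e⟩, fun ⟨m, h1, h2, e⟩ => ⟨⟨⟨m, hF.le h2⟩, h1⟩, e⟩⟩
  have hW : Nat.card (TD φ).mt.W1 = 12 := (TD φ).card_W1 (by decide) (by decide) tabD4 enumD4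
  have hDN : DT K q ≤ N1 := fun x hx => (TD φ).mt.H_le (by rw [TwD.mt_H']; exact hx)
  obtain ⟨r, hr⟩ : ∃ r, q = 3 * r + 1 := ⟨q / 3, by have : q % 3 = 1 := h3; omega⟩
  have hI : ¬ 3 ∣ N1.index := fun h => by
    have h1 := relIndex_mul_index hDN
    rw [relIndex, ← hker, index_ker, hran, hW, DT_index hq hK] at h1
    have h2 : 3 * 3 ∣ q ^ 12 * (q + 1) * (q ^ 3 + 1) * (q ^ 8 + q ^ 4 + 1) :=
      h1 ▸ mul_dvd_mul (by norm_num) h
    obtain ⟨s, hs⟩ : ∃ s, q ^ 8 + q ^ 4 + 1 = 3 * (3 * s + 1) := ⟨729 * r ^ 8 + 1944 * r ^ 7 + 2268 * r ^ 6 +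
      1512 * r ^ 5 + 639 * r ^ 4 + 180 * r ^ 3 + 34 * r ^ 2 + 4 * r, by rw [hr]; ring⟩
    rw [hs, mul_left_comm, Nat.mul_dvd_mul_iff_left (by norm_num)] at h2
    have := (((h3.pow 12).mul (h3.add_right 1)).mul ((h3.pow 3).add_right 1)).mul
      (show 3 * s + 1 ≡ 1 [MOD 3] by unfold Nat.ModEq; omega)
    exact absurd ((this.dvd_iff dvd_rfl).1 h2) (by norm_num)
  obtain ⟨P₀, hP₀, -⟩ := H4.IsSylowIn.exists_le (p := 3) (Q := ⊥) (K := N1) IsPGroup.of_bot bot_le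
  have hP' : ¬ 3 ∣ P₀.index := by
    rw [← relIndex_mul_index hP₀.le]
    exact fun h => (Nat.prime_three.dvd_mul.1 h).elim hP₀.not_dvd hI
  obtain ⟨p, _⟩ := CharP.exists K
  haveI : Fact p.Prime := ⟨CharP.char_is_prime K p⟩
  have hp : 3 ≠ p := by
    rintro rfl
    obtain ⟨n, hn, e⟩ := exists_card_eq_pow K 3
    rw [Nat.card_eq_fintype_card, hK] at e
    have := ((h3.pow 3).dvd_iff dvd_rfl).1 (e ▸ dvd_pow_self 3 hn)
    norm_num at this
  refine no_A8 (DT K q) (hP₀.isPGroup.toSylow hP') DT_comm (DT_pow hq hK) ?_ (fun w hw hw' => ?_) ?_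
    (pow12_D4 p hp (inclusion (hF.ge.trans fun g hg => ?_)) (inclusion_injective _)) j hj ψ hψ f hf hd hc
  · change (DT K q).relIndex P₀ ≤ 3
    rw [← relIndex_subgroupOf hP₀.le, ← hker, relIndex_ker]
    obtain ⟨n, hn⟩ := IsPGroup.iff_card.1 ((hP₀.isPGroup.comap_subtype (K := N1)).map π)
    have h1 := card_dvd_of_le (hran ▸ map_le_range π (P₀.subgroupOf N1))
    change Nat.card (map π (P₀.subgroupOf N1)) = _ at hn
    rw [hn] at h1 ⊢
    rw [hW] at h1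
    exact Nat.le_of_dvd (by norm_num)
      (Nat.Coprime.dvd_of_dvd_mul_left (Nat.Coprime.pow_left n (by norm_num : Nat.Coprime 3 4)) h1)
  · have hwN : w.1 ∈ (TD φ).mt.N := hP₀.le hw
    obtain ⟨h6, h7⟩ := W1_D4 φ ((TD φ).mt.mem_W1.2 ⟨_, hwN, hF.ge w.2, rfl⟩)
    obtain ⟨n, hn⟩ := hP₀.isPGroup ⟨w, hw⟩
    have h8 : (TD φ).mt.w w ^ 3 ^ n = 1 := by
      rw [← tw_w_pow _ hwN, show w.1 ^ 3 ^ n = 1 from congrArg (·.1.1) hn, Tw.w_one]
    have h9 := (h7 (orderOf_dvd_iff_pow_eq_one.1 (Nat.Coprime.dvd_of_dvd_mul_left (Nat.Coprime.coprime_dvd_left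
      (orderOf_dvd_of_pow_eq_one h8) (Nat.Coprime.pow_left n (by norm_num : Nat.Coprime 3 2)))
      (orderOf_dvd_of_pow_eq_one h6)))).resolve_left fun e => hw' (by
        have := ((TD φ).mt.w_eq_one _ hwN).1 e
        rwa [TwD.mt_H'] at this)
    have key : ∀ t ∈ DT K q ⊓ (P₀ ⊓ centralizer {w}), ∃ k : rootsOfUnity 3 K, dh φ (k, 1) = t.1 := by
      intro t ht
      obtain ⟨⟨k, l⟩, e⟩ := (range_dh (frob_iter_self hK hφ)).ge (x := t.1)
        ⟨by rw [matRel_H]; exact ht.1, hF.ge t.2⟩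
      have h1 := chi_of_comm hwN (e ▸ isH_dh φ (k, l)) (congrArg Subtype.val (ht.2.2 w rfl))
      have h2 : chi chevD4 (dc φ (k, l)) 15 = chi chevD4 (dc φ (k, l)) 2 ∧
          chi chevD4 (dc φ (k, l)) 23 = chi chevD4 (dc φ (k, l)) 1 := by
        rcases h9 with ⟨e1, e2⟩ | ⟨e1, e2⟩
        · exact ⟨e1 ▸ h1 ⟨2, by decide⟩, e2 ▸ h1 ⟨1, by decide⟩⟩
        · exact ⟨(e1 ▸ h1 ⟨15, by decide⟩).symm, (e2 ▸ h1 ⟨23, by decide⟩).symm⟩
      have h4 : (chevD4.cartan 0 15 = -1 ∧ chevD4.cartan 1 15 = 1 ∧ chevD4.cartan 2 15 = -1 ∧ chevD4.cartan 3 15 = 1) ∧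
          (chevD4.cartan 0 2 = -1 ∧ chevD4.cartan 1 2 = 0 ∧ chevD4.cartan 2 2 = -1 ∧ chevD4.cartan 3 2 = 1) ∧
          (chevD4.cartan 0 23 = 0 ∧ chevD4.cartan 1 23 = 1 ∧ chevD4.cartan 2 23 = 0 ∧ chevD4.cartan 3 23 = 0) ∧
          (chevD4.cartan 0 1 = -1 ∧ chevD4.cartan 1 1 = 1 ∧ chevD4.cartan 2 1 = -1 ∧ chevD4.cartan 3 1 = -1) := by
        decide +kernel
      simp only [chiD4, h4, dc] at h2
      have hl : l = 1 := Subtype.ext (by simpa using h2.1)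
      subst hl
      have h5 : k ^ (q ^ 2 + q + 1) = 1 := by
        have e1 : ∀ u : Kˣ, Units.map (φ : K →* K) u = u ^ q := fun u => Units.ext (by simp [hφ])
        have := h2.2
        simp only [e1] at this
        rw [← inv_eq_one, pow_add, pow_add, sq, pow_mul]
        simpa [mul_comm, mul_left_comm, mul_assoc] using this.symm
      obtain ⟨m, hm⟩ := hP₀.isPGroup ⟨t, ht.2.1⟩
      have h10 : k ^ 3 ^ m = 1 := congrArg Prod.fst (dh_injective φ (a₂ := 1)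
        (by rw [map_pow, e, map_one]; exact congrArg (·.1.1) hm) : (k, (1 : fixU φ)) ^ 3 ^ m = 1)
      refine ⟨⟨k, (mem_rootsOfUnity _ _).2 (orderOf_dvd_iff_pow_eq_one.1 (Nat.Coprime.dvd_of_dvd_mul_right
        (n := 3 * r ^ 2 + 3 * r + 1) (Nat.Coprime.coprime_dvd_left (orderOf_dvd_of_pow_eq_one h10)
        (Nat.Coprime.pow_left m ?_)) ?_))⟩, e⟩
      · rw [add_assoc, add_comm, Nat.coprime_add_mul_left_right, add_comm, Nat.coprime_add_mul_left_right]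
        norm_num
      · rw [show 3 * (3 * r ^ 2 + 3 * r + 1) = q ^ 2 + q + 1 by rw [hr]; ring]
        exact orderOf_dvd_of_pow_eq_one h5
    choose g hg using key
    refine (Nat.card_le_card_of_injective (fun t : ↥(DT K q ⊓ (P₀ ⊓ centralizer {w})) => g t.1 t.2)
      fun a b e => Subtype.ext (Subtype.ext ?_)).trans (card_rootsOfUnity K 3)
    rw [← hg _ a.2, ← hg _ b.2]
    exact congrArg (fun k : rootsOfUnity 3 K => dh φ (k, 1)) e
  · rw [card_D4 hq hK hφ]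
    have h1 : ∀ n, 3 ∣ q ^ n - 1 := fun n =>
      (Nat.modEq_iff_dvd' (Nat.one_le_pow n q hq.pos)).1 (by simpa using (h3.pow n).symm)
    have h2 : 3 ∣ q ^ 8 + q ^ 4 + 1 := ((((h3.pow 8).add (h3.pow 4)).add_right 1).dvd_iff dvd_rfl).2 (by norm_num)
    exact mul_dvd_mul (mul_dvd_mul ((h1 2).mul_left _) (h1 6)) h2
  · rw [← matRel_grp isChev_D4]
    exact ((TD φ).mem_mt_Fix.1 hg).1

omit hq hK hj hψ

theorem exA7 : ∃ a b : alternatingGroup (Fin 7), a ^ 5 = 1 ∧ b * a * b⁻¹ = a ^ 2 ∧ a ≠ 1 := by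
  refine ⟨⟨c[0, 1, 2, 3, 4], Equiv.Perm.mem_alternatingGroup.2 (by decide +kernel)⟩,
    ⟨c[1, 2, 4, 3] * c[5, 6], Equiv.Perm.mem_alternatingGroup.2 (by decide +kernel)⟩, ?_⟩
  simp only [ne_eq, Subtype.ext_iff, Subgroup.coe_mul, Subgroup.coe_pow, Subgroup.coe_inv, Subgroup.coe_one]
  decide +kernel

theorem exA8 : ∃ (f : V3 →* alternatingGroup (Fin 8)) (c d : alternatingGroup (Fin 8)), Function.Injective f ∧
    (∀ v, d * f v * d⁻¹ = f (rotJ v)) ∧ ∀ v, c ^ 2 * f v * (c ^ 2)⁻¹ = f (reflS v) := by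
  let a : Equiv.Perm (Fin 8) := c[0, 1, 2]
  let b : Equiv.Perm (Fin 8) := c[3, 4, 5]
  let f : V3 →* Equiv.Perm (Fin 8) := MonoidHom.mk' (fun v => a ^ v.toAdd.1.val * b ^ v.toAdd.2.val) (by decide +kernel)
  refine ⟨f.codRestrict _ fun v => Equiv.Perm.mem_alternatingGroup.2 (by revert v; decide +kernel),
    ⟨c[0, 6, 1, 7] * c[3, 4], Equiv.Perm.mem_alternatingGroup.2 (by decide +kernel)⟩,
    ⟨c[0, 3, 1, 4] * c[2, 5], Equiv.Perm.mem_alternatingGroup.2 (by decide +kernel)⟩, ?_⟩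
  simp only [Function.Injective, Subtype.ext_iff, Subgroup.coe_mul, Subgroup.coe_pow, Subgroup.coe_inv,
    MonoidHom.codRestrict_apply]
  decide +kernel

theorem glMap_twistedD4 {K K' : Type*} [Field K] [Field K'] (i : K →+* K') {q q' : ℕ} (h : ∀ t : K, t ^ q' = t ^ q)
    {g : GL chevD4.Idx K} (hg : g ∈ twistedD4 K q) : H39.glMap chevD4 i g ∈ twistedD4 K' q' := by
  refine (closure_le ((twistedD4 K' q').comap (H39.glMap chevD4 i))).2 ?_ hg
  rintro g ⟨w, hw, e⟩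
  refine subset_closure ⟨w.map fun p => (p.1, i p.2), ?_, by rw [H39.glMap_coe, e, H39.wordMat_map]⟩
  rcases hw with ⟨t, ht, r, hr, rfl⟩ | ⟨t, r, hr, rfl⟩
  · exact .inl ⟨i t, by rw [← map_pow, h, ht], r, hr, rfl⟩
  · exact .inr ⟨i t, r, hr, by simp only [List.map_cons, List.map_nil, ← map_pow, sq, pow_mul, h]⟩

theorem d4_alt {K : Type*} [Field K] [Finite K] (p : ℕ) [Fact p.Prime] [CharP K p] {q e n : ℕ} [NeZero n]
    (hn : Nat.card K ^ n = (e ^ 4) ^ 3) (he : ∃ a, a ≠ 0 ∧ e = p ^ a) (h : ∀ t : K, t ^ e ^ 4 = t ^ q)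
    {H : Type*} [Group H] [Finite H] (j : H →* twistedD4 K q) (hj : Function.Injective j) {r : ℕ}
    (ψ : H →* alternatingGroup (Fin r)) (hψ : Function.Surjective ψ) : r ≤ 6 + (if p = 5 then 1 else 0) := by
  obtain ⟨a, ha, rfl⟩ := he
  let K' := FiniteField.Extension K p n
  letI := Fintype.ofFinite K'
  have hK : Fintype.card K' = ((p ^ a) ^ 4) ^ 3 := by
    rw [← Nat.card_eq_fintype_card, FiniteField.natCard_extension, hn]
  have hq : IsPrimePow ((p ^ a) ^ 4) := ((Fact.out : p.Prime).isPrimePow.pow ha).pow (by norm_num)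
  let j' : H →* twistedD4 K' ((p ^ a) ^ 4) :=
    ((H39.glMap chevD4 (algebraMap K K')).comp ((twistedD4 K q).subtype.comp j)).codRestrict _
      fun x => glMap_twistedD4 _ h (j x).2
  have hj' : Function.Injective j' := fun x y e => hj (Subtype.ext (Units.ext
    (Matrix.map_injective (algebraMap K K').injective (congrArg (·.1.1) e))))
  by_contra hr
  split_ifs at hr with hp
  · obtain ⟨ι, hι⟩ := exists_alt_hom (show 8 ≤ r by omega)
    obtain ⟨f, c, d, h1, h2, h3⟩ := exA8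
    refine d4_three hq hK j' hj' ψ hψ ?_ (ι.comp f) (hι.comp h1) (c := ι c) (d := ι d) (fun v => ?_) fun v => ?_
    · rw [← pow_mul, mul_comm, pow_mul, hp]
      simpa using (by decide : 5 ^ 4 ≡ 1 [MOD 3]).pow a
    · rw [MonoidHom.comp_apply, MonoidHom.comp_apply, ← h2, map_mul, map_mul, map_inv]
    · rw [MonoidHom.comp_apply, MonoidHom.comp_apply, ← h3, map_mul, map_mul, map_inv, map_pow]
  · obtain ⟨ι, hι⟩ := exists_alt_hom (show 7 ≤ r by omega)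
    obtain ⟨x, y, h1, h2, h3⟩ := exA7
    refine h3 (hι ((d4_five hq hK j' hj' ψ hψ ?_ (a := ι x) (b := ι y) (by rw [← map_pow, h1, map_one])
      (by rw [← map_inv, ← map_mul, ← map_mul, h2, map_pow])).trans (map_one ι).symm))
    exact Nat.ModEq.pow_totient (((Nat.coprime_primes Fact.out Nat.prime_five).2 hp).pow_left a)

end Cfsg.Agent.H13
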