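import Cfsg.Agent.H13.ChevFus

/-! A `3`-local criterion excluding `A₈` as a section. -/

set_option autoImplicit false

namespace Cfsg.Agent.H13

open Subgroup

theorem eq_or_inv_of_card_le {G : Type*} [Group G] {K : Subgroup G} [Finite K] (hK : Nat.card K ≤ 3) {k k' : G}
    (hk : k ∈ K) (hk' : k' ∈ K) (h1 : k ≠ 1) (h1' : k' ≠ 1) : k' = k ∨ k' = k⁻¹ := by
  classical
  by_contra h
  obtain ⟨h2, h3⟩ := not_or.1 h
  have h4 : k * k' ≠ 1 := fun e => h3 (eq_inv_of_mul_eq_one_right e)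
  have : ({1, k, k', k * k'} : Set G).ncard ≤ 3 :=
    (Set.ncard_le_ncard (t := (K : Set G)) (by
      rintro _ (rfl | rfl | rfl | rfl)
      exacts [K.one_mem, hk, hk', K.mul_mem hk hk']) (Set.toFinite _)).trans (by rwa [← Nat.card_coe_set_eq])
  rw [Set.ncard_insert_of_notMem (by simp [h1.symm, h1'.symm, h4.symm]),
    Set.ncard_insert_of_notMem (by simp [Ne.symm h2, h1']), Set.ncard_pair (by simp [h1])] at this
  omega

theorem sq_conj_of_card_le {G : Type*} [Group G] {K : Subgroup G} [Finite K] (hK : Nat.card K ≤ 3) {n : G}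
    (hn : ∀ k ∈ K, n * k * n⁻¹ ∈ K) {k : G} (hk : k ∈ K) : Commute (n ^ 2) k := by
  by_cases h1 : k = 1
  · simp [h1]
  have e : n ^ 2 * k = n * (n * k * n⁻¹) * n⁻¹ * n ^ 2 := by rw [sq]; group
  rcases eq_or_inv_of_card_le hK hk (hn k hk) h1 (by simpa using h1) with h | h
  · rw [Commute, SemiconjBy, e, h, h]
  · rw [Commute, SemiconjBy, e, h, ← conj_inv, h, inv_inv]

theorem card_inf_mul_relIndex {G : Type*} [Group G] (H K : Subgroup G) :
    Nat.card ↥(H ⊓ K) * H.relIndex K = Nat.card K := by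
  rw [← (H.subgroupOf K).card_mul_index, ← inf_subgroupOf_right,
    Nat.card_congr (subgroupOfEquivOfLe (inf_le_right : H ⊓ K ≤ K)).toEquiv, inf_subgroupOf_right]
  rfl

/-- the group `3²` -/
abbrev V3 := Multiplicative (ZMod 3 × ZMod 3)

/-- the rotation of order four -/
def rotJ (v : V3) : V3 := Multiplicative.ofAdd (-v.toAdd.2, v.toAdd.1)
/-- a reflection -/
def reflS (v : V3) : V3 := Multiplicative.ofAdd (-v.toAdd.1, v.toAdd.2)
/-- the linear map with given columns -/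
def linV (a b v : V3) : V3 := a ^ v.toAdd.1.val * b ^ v.toAdd.2.val

theorem linV_e (v : V3) : linV (.ofAdd (1, 0)) (.ofAdd (0, 1)) v = v := by revert v; decide

theorem rotJ_six : ∀ v : V3, rotJ^[6] v = v → v = 1 := by decide

theorem refl_e : reflS (.ofAdd (1, 0)) * .ofAdd (1, 0) = 1 ∧ reflS (.ofAdd (0, 1)) = .ofAdd (0, 1) := by decide

theorem linV_eight : ∀ a b : V3, (∀ v, (linV a b)^[3] v = v) →
    (∀ v, (linV a b ∘ reflS)^[12] v = v) → (∀ v, ((linV a b ∘ reflS) ∘ rotJ)^[12] v = v) → ∀ v, linV a b v = v := by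
  decide +kernel

theorem conj_iter {G V : Type*} [Group G] {F : V → G} {g : G} {M : V → V} (h : ∀ v, g * F v * g⁻¹ = F (M v))
    (i : ℕ) (v : V) : g ^ i * F v * (g ^ i)⁻¹ = F (M^[i] v) := by
  induction i with
  | zero => simp
  | succ i ih => rw [Function.iterate_succ_apply', ← h, ← ih, pow_succ']; simp only [mul_inv_rev, mul_assoc]

theorem conj_comp {G V : Type*} [Group G] {F : V → G} {g g' : G} {M M' : V → V} (h : ∀ v, g * F v * g⁻¹ = F (M v))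
    (h' : ∀ v, g' * F v * g'⁻¹ = F (M' v)) (v : V) : g * g' * F v * (g * g')⁻¹ = F ((M ∘ M') v) := by
  rw [Function.comp_apply, ← h, ← h']; simp only [mul_inv_rev, mul_assoc]

theorem no_transvection {G : Type*} [Group G] {F : V3 →* G} (hF : Function.Injective F)
    (F5 : ∀ g, (∀ v, ∃ v', g * F v * g⁻¹ = F v') → ∀ v, g ^ 12 * F v * (g ^ 12)⁻¹ = F v)
    {s d t : G} (hs : ∀ v, s * F v * s⁻¹ = F (reflS v)) (hd : ∀ v, d * F v * d⁻¹ = F (rotJ v))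
    (ht : ∀ v, ∃ v', t * F v * t⁻¹ = F v') {k : ℕ} (hk : t ^ 3 ^ k = 1) (v : V3) : t * F v * t⁻¹ = F v := by
  have key : ∀ {g : G} {M : V3 → V3}, (∀ v, g * F v * g⁻¹ = F (M v)) → ∀ v, M^[12] v = v := fun h v =>
    hF (by rw [← conj_iter h, F5 _ fun v => ⟨_, h v⟩])
  obtain ⟨a, ha⟩ := ht (.ofAdd (1, 0))
  obtain ⟨b, hb⟩ := ht (.ofAdd (0, 1))
  have h : ∀ v, t * F v * t⁻¹ = F (linV a b v) := fun v => by
    conv_lhs => rw [← linV_e v]
    simp only [linV, map_mul, map_pow, ← ha, ← hb, conj_pow, conj_mul]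
  rw [h, linV_eight a b (fun v => ?_) (key (conj_comp h hs)) (key (conj_comp (conj_comp h hs) hd))]
  have h1 : Function.IsPeriodicPt (linV a b) (3 ^ k) v := hF (by rw [← conj_iter h, hk]; simp)
  have h2 : (Nat.gcd 12 (3 ^ k)).Coprime 4 :=
    Nat.Coprime.coprime_dvd_left (Nat.gcd_dvd_right _ _) (Nat.Coprime.pow_left k (by norm_num))
  exact (Function.IsPeriodicPt.gcd (key h v) h1).trans_dvd (h2.dvd_of_dvd_mul_left (Nat.gcd_dvd_left 12 _))

theorem no_A8 {G H S : Type*} [Group G] [Finite G] [Group H] [Finite H] [Group S] (D : Subgroup G)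
    (P : Sylow 3 G) (hD : ∀ a ∈ D, ∀ b ∈ D, a * b = b * a)
    (F1 : ∀ R : Set G, (∀ x ∈ R, x ∈ D) → ∀ g, (∀ x ∈ R, g * x * g⁻¹ ∈ R) → ∀ x ∈ R, g ^ 6 * x * (g ^ 6)⁻¹ = x)
    (F2 : D.relIndex P ≤ 3) (F3 : ∀ w ∈ P, w ∉ D → Nat.card ↥(D ⊓ (P ⊓ centralizer {w})) ≤ 3)
    (F4 : 27 ∣ Nat.card G)
    (F5 : ∀ F : V3 →* G, ∀ g, (∀ v, ∃ v', g * F v * g⁻¹ = F v') → ∀ v, g ^ 12 * F v * (g ^ 12)⁻¹ = F v)
    (j₀ : H →* G) (hj₀ : Function.Injective j₀) (φ : H →* S) (hφ : Function.Surjective φ)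
    (f : V3 →* S) (hf : Function.Injective f) {c d : S} (hd : ∀ v, d * f v * d⁻¹ = f (rotJ v))
    (hc : ∀ v, c ^ 2 * f v * (c ^ 2)⁻¹ = f (reflS v)) : False := by
  haveI : Fact (Nat.Prime 3) := ⟨by norm_num⟩
  have hE : Nat.card f.range = 9 := by
    rw [← Nat.card_congr (MonoidHom.ofInjective hf).toEquiv, Nat.card_eq_fintype_card]; rfl
  obtain ⟨Q, hQ, hm, hn⟩ := lift_norm (p := 3) φ ⊤ (E := f.range) (IsPGroup.of_card (n := 2) hE)
    fun x _ => (hφ x).imp fun _ h => ⟨trivial, h⟩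
  have hn' : ∀ {s : S} {M : V3 → V3}, (∀ v, s * f v * s⁻¹ = f (M v)) →
      ∃ g, (∀ x ∈ Q, g * x * g⁻¹ ∈ Q) ∧ φ g = s := fun {s M} h => by
    obtain ⟨g, rfl⟩ := hφ s
    obtain ⟨g', -, h'⟩ := hn g trivial (by rintro _ ⟨v, rfl⟩; exact ⟨_, (h v).symm⟩)
    exact ⟨g', h'⟩
  obtain ⟨gd, hgd, rfl⟩ := hn' hd
  obtain ⟨c₀, hc₀⟩ := H4.exists_conj_mem_sylow (hQ.isPGroup.map j₀) P
  set j : H →* G := (MulAut.conj c₀).toMonoidHom.comp j₀
  have hj : Function.Injective j := (MulAut.conj c₀).injective.comp hj₀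
  have hQP : Q.map j ≤ P := by rintro _ ⟨x, hx, rfl⟩; exact hc₀ _ ⟨x, hx, rfl⟩
  clear_value j
  have hrel : ∀ {C : Subgroup G}, C ≤ P → D.relIndex C ≤ 3 := fun h =>
    (relIndex_le_of_le_right h index_ne_zero_of_finite).trans F2
  have h1 : (D.comap j).relIndex Q ≤ 3 := by rw [relIndex_comap]; exact hrel hQP
  have h9 : φ.ker.relIndex Q = 9 := by rw [relIndex_ker, hm, hE]
  have hv : ∀ x ∈ Q, ∃ v, f v = φ x := fun x hx => hm.le ⟨x, hx, rfl⟩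
  have hp : ∀ (g y : H), φ (g * y * g⁻¹) = φ g * φ y * (φ g)⁻¹ := fun i y => by rw [map_mul, map_mul, map_inv]
  by_cases h0 : ∀ u ∈ D.comap j ⊓ Q, gd * u * gd⁻¹ ∈ D.comap j
  · have : D.comap j ⊓ Q ≤ φ.ker := fun u hu => by
      have h2 := F1 (j '' (D.comap j ⊓ Q : Subgroup H)) (by rintro _ ⟨x, hx, rfl⟩; exact hx.1) (j gd) (by
        rintro _ ⟨x, hx, rfl⟩
        exact ⟨_, ⟨h0 x hx, hgd x hx.2⟩, by rw [map_mul, map_mul, map_inv]⟩) _ ⟨u, hu, rfl⟩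
      rw [← map_pow, ← map_inv, ← map_mul, ← map_mul, hj.eq_iff] at h2
      obtain ⟨v, e⟩ := hv u hu.2
      have h3 := congrArg φ h2
      rw [hp, map_pow, ← e, conj_iter hd, hf.eq_iff] at h3
      rw [MonoidHom.mem_ker, ← e, rotJ_six v h3, map_one]
    have := relIndex_le_of_le_left (L := Q) this index_ne_zero_of_finite
    rw [inf_relIndex_right] at this
    omega
  simp only [not_forall] at h0
  obtain ⟨u, hu, hw⟩ := h0
  have hwQ := hgd u hu.2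
  have h3 : ∀ B : Subgroup H, B ≤ D.comap j ⊓ Q → (∀ x ∈ B, gd * u * gd⁻¹ * x = x * (gd * u * gd⁻¹)) →
      Nat.card B ≤ 3 := fun B hB h => by
    rw [← card_map_of_injective hj]
    refine (card_le_of_le ?_).trans (F3 _ (hQP ⟨_, hwQ, rfl⟩) hw)
    rintro _ ⟨x, hx, rfl⟩
    exact ⟨(hB hx).1, hQP ⟨x, (hB hx).2, rfl⟩, by rintro _ rfl; rw [← map_mul, h x hx, map_mul]⟩
  have hK : Nat.card ↥(φ.ker ⊓ Q) ≤ 3 := by
    have e1 := card_inf_mul_relIndex φ.ker Q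
    have e2 := card_inf_mul_relIndex (D.comap j ⊓ (D.comap j).comap (MulAut.conj gd⁻¹).toMonoidHom) Q
    have e3 := relIndex_inf_le (H := D.comap j) (K := (D.comap j).comap (MulAut.conj gd⁻¹).toMonoidHom) (L := Q)
    rw [relIndex_comap (D.comap j),
      H4.map_conj_eq_iff.2 (inv_mem (H4.mem_normalizer_of_conj_mem hgd))] at e3
    have e4 := h3 _ (inf_le_inf_right Q (inf_le_left (b := (D.comap j).comap (MulAut.conj gd⁻¹).toMonoidHom)))
      fun x hx => by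
        have := hD _ hu.1 _ hx.1.2
        rw [← map_mul, ← map_mul, hj.eq_iff] at this
        change u * (gd⁻¹ * x * gd⁻¹⁻¹) = gd⁻¹ * x * gd⁻¹⁻¹ * u at this
        calc _ = gd * (u * (gd⁻¹ * x * gd⁻¹⁻¹)) * gd⁻¹ := by group
          _ = _ := by rw [this]; group
    have e5 := Nat.mul_le_mul e4 (e3.trans (Nat.mul_le_mul h1 h1))
    rw [e2, ← e1, h9] at e5
    omega
  have hZ : ∀ x ∈ Q, ∀ k ∈ φ.ker ⊓ Q, Commute x k := fun x hx k hk => by
    obtain ⟨i, hi⟩ := hQ.isPGroup ⟨x, hx⟩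
    obtain ⟨l, hl⟩ := exists_pow_eq_self_of_coprime (x := x) (n := 2) (Nat.Coprime.coprime_dvd_right
      (orderOf_dvd_of_pow_eq_one (congrArg Subtype.val hi)) (Nat.Coprime.pow_right _ (by norm_num)))
    exact hl ▸ (sq_conj_of_card_le hK (fun y hy => mem_inf.2 ⟨φ.normal_ker.conj_mem _ hy.1 x,
      mul_mem (mul_mem hx (mem_inf.1 hy).2) (inv_mem hx)⟩) hk).pow_left l
  obtain ⟨x, hx, ex⟩ := hm.ge ⟨.ofAdd (1, 0), rfl⟩
  obtain ⟨y, hy, ey⟩ := hm.ge ⟨.ofAdd (0, 1), rfl⟩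
  have hxy : Commute x y := by
    obtain ⟨n₀, rfl⟩ := hφ c
    obtain ⟨m, hm', hn₀⟩ := (hQ.inf_of_normalizes (N := φ.ker) (fun z hz => mem_inf.2 ⟨trivial, by
      rw [mem_comap, MonoidHom.mem_ker.1 hz]; exact one_mem _⟩) (by rw [normalizer_eq_top]; exact le_top)).frattini
      (g := n₀) (by rw [normalizer_eq_top]; trivial)
    rw [inf_comm] at hn₀
    have e0 : φ (m * n₀) = φ n₀ := by rw [map_mul, MonoidHom.mem_ker.1 hm', one_mul]
    have hL : (m * n₀) ^ 2 ∈ centralizer ((φ.ker ⊓ Q : Subgroup H) : Set H) := fun k hk =>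
      (sq_conj_of_card_le hK (fun z hz => (mem_normalizer_iff.1 hn₀ z).1 hz) hk).symm
    obtain ⟨l, hl, hg⟩ := (hQ.mono (L := centralizer ((φ.ker ⊓ Q : Subgroup H) : Set H) ⊓ f.range.comap φ)
      (fun z hz => ⟨fun k hk => (hZ z hz k hk).symm, (hQ.le hz).2⟩) (inf_le_inf_right _ le_top)).frattini
      (g := (m * n₀) ^ 2) (H4.mem_normalizer_of_conj_mem fun z hz =>
        mem_inf.2 ⟨mul_mem (mul_mem hL (mem_inf.1 hz).1) (inv_mem hL), by
          obtain ⟨v, e⟩ := hz.2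
          exact ⟨reflS v, by rw [hp, map_pow, e0, ← e, hc]⟩⟩)
    set g := l * (m * n₀) ^ 2
    have hgL : ∀ k ∈ φ.ker ⊓ Q, k * g = g * k := mul_mem hl.1 hL
    have hgv : ∀ v, φ g * f v * (φ g)⁻¹ = f (reflS v) := fun v => by
      obtain ⟨v₀, e⟩ := hl.2
      rw [map_mul, map_pow, e0, ← e, mul_inv_rev, mul_assoc (f v₀), mul_assoc (f v₀), ← mul_assoc _ _ (f v₀)⁻¹, hc,
        ← map_inv, ← map_mul, ← map_mul, mul_inv_cancel_comm_assoc]
    have k1 : g * x * g⁻¹ * x ∈ φ.ker ⊓ Q := mem_inf.2 ⟨by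
      rw [MonoidHom.mem_ker, map_mul, hp, ex, hgv, ← map_mul, refl_e.1, map_one],
      mul_mem ((mem_normalizer_iff.1 hg x).1 hx) hx⟩
    have k2 : g * y * g⁻¹ * y⁻¹ ∈ φ.ker ⊓ Q := mem_inf.2 ⟨by
      rw [MonoidHom.mem_ker, map_mul, hp, map_inv φ y, ey, hgv, ← map_inv f, refl_e.2, map_inv, mul_inv_cancel],
      mul_mem ((mem_normalizer_iff.1 hg y).1 hy) (inv_mem hy)⟩
    have k3 : x * y * x⁻¹ * y⁻¹ ∈ φ.ker ⊓ Q := mem_inf.2 ⟨by
      rw [MonoidHom.mem_ker, map_mul, hp, map_inv φ y, ex, ey, ← map_inv f, ← map_inv f, ← map_mul f, ← map_mul f,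
        ← map_mul f, mul_inv_cancel_comm, mul_inv_cancel, map_one],
      mul_mem (mul_mem (mul_mem hx hy) (inv_mem hx)) (inv_mem hy)⟩
    have e1 := hgL _ k3
    generalize ha : g * x * g⁻¹ * x = a at k1
    generalize hb : g * y * g⁻¹ * y⁻¹ = b at k2
    generalize hz : x * y * x⁻¹ * y⁻¹ = z at k3 e1
    have e2 : z = a * x⁻¹ * (b * y) * (a * x⁻¹)⁻¹ * (b * y)⁻¹ := by
      rw [← ha, ← hb, eq_mul_inv_of_mul_eq e1, ← hz]; group
    have e3 : z = z⁻¹ := by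
      have c1 := (hZ _ hx a k1).eq
      have c2 := (hZ _ hy a k1).eq
      have c3 := (hZ _ hx b k2).eq
      have c4 := (hZ _ hy b k2).eq
      have c5 := (hZ _ hx z k3).eq
      have c6 := (hZ _ k1.2 b k2).eq
      calc z = a * x⁻¹ * b * y * x * a⁻¹ * y⁻¹ * b⁻¹ := by rw [e2]; group
        _ = a * b * (x⁻¹ * y * x * y⁻¹) * a⁻¹ * b⁻¹ := by
          rw [mul_assoc a x⁻¹, (hZ _ (inv_mem hx) b k2).eq, mul_assoc _ a⁻¹ y⁻¹, ← (hZ _ hy a k1).inv_inv.eq]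
          group
        _ = x⁻¹ * y * x * y⁻¹ := by
          have q : x⁻¹ * y * x * y⁻¹ ∈ Q := mul_mem (mul_mem (mul_mem (inv_mem hx) hy) hx) (inv_mem hy)
          rw [← (hZ _ q _ (mul_mem k1 k2)).eq, c6]; group
        _ = x⁻¹ * z⁻¹ * x := by rw [← hz]; group
        _ = z⁻¹ := by rw [(hZ _ (inv_mem hx) _ (inv_mem k3)).eq]; group
    obtain ⟨i, hi⟩ := hQ.isPGroup ⟨z, k3.2⟩
    have := pow_gcd_eq_one.2 ⟨(by rw [sq, mul_eq_one_iff_eq_inv]; exact e3 : z ^ 2 = 1), congrArg Subtype.val hi⟩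
    rw [Nat.Coprime.gcd_eq_one (Nat.Coprime.pow_right _ (by norm_num)), pow_one, ← hz, mul_inv_eq_one,
      mul_inv_eq_iff_eq_mul] at this
    exact this
  have hgen : ∀ M : Subgroup H, φ.ker ⊓ Q ≤ M → x ∈ M → y ∈ M → Q ≤ M := fun M h hxM hyM q hq => by
    obtain ⟨v, e⟩ := hv q hq
    have : q * (x ^ v.toAdd.1.val * y ^ v.toAdd.2.val)⁻¹ ∈ φ.ker ⊓ Q := mem_inf.2 ⟨by
      rw [MonoidHom.mem_ker, map_mul, map_inv, map_mul, map_pow, map_pow, ex, ey, ← e, ← map_pow f, ← map_pow f,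
        ← map_mul f, mul_inv_eq_one]
      exact congrArg f (linV_e v).symm, mul_mem hq (inv_mem (mul_mem (pow_mem hx _) (pow_mem hy _)))⟩
    have := mul_mem (h this) (mul_mem (pow_mem hxM v.toAdd.1.val) (pow_mem hyM v.toAdd.2.val))
    rwa [inv_mul_cancel_right] at this
  have hab : Q ≤ centralizer (Q : Set H) := hgen _ (fun k hk q hq => hZ q hq k hk)
    (fun q hq => mem_centralizer_singleton_iff.1 (hgen (centralizer {x})
      (fun k hk => mem_centralizer_singleton_iff.2 (hZ x hx k hk).symm) (mem_centralizer_singleton_iff.2 rfl)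
      (mem_centralizer_singleton_iff.2 hxy.symm) hq))
    fun q hq => mem_centralizer_singleton_iff.1 (hgen (centralizer {y})
      (fun k hk => mem_centralizer_singleton_iff.2 (hZ y hy k hk).symm) (mem_centralizer_singleton_iff.2 hxy)
      (mem_centralizer_singleton_iff.2 rfl) hq)
  have hQ9 : Nat.card Q = 9 ∧ φ.ker ⊓ Q = ⊥ := by
    have e1 := card_inf_mul_relIndex φ.ker Q
    have e2 := card_inf_mul_relIndex (D.comap j) Q
    have e5 := Nat.mul_le_mul (h3 _ le_rfl fun z hz => hab hz.2 _ hwQ) h1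
    have e6 := Nat.card_pos (α := ↥(φ.ker ⊓ Q))
    rw [h9] at e1
    exact ⟨by omega, (card_le_one_iff_eq_bot _).1 (by omega)⟩
  have hinj : ∀ q ∈ Q, ∀ q' ∈ Q, φ q = φ q' → q = q' := fun q hq q' hq' e => by
    have : q * q'⁻¹ ∈ φ.ker ⊓ Q := mem_inf.2 ⟨by rw [MonoidHom.mem_ker, map_mul, map_inv, e, mul_inv_cancel],
      mul_mem hq (inv_mem hq')⟩
    rwa [hQ9.2, mem_bot, mul_inv_eq_one] at this
  choose F₀ hF₀ eF₀ using fun v => hm.ge (⟨v, rfl⟩ : f v ∈ f.range)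
  let F : V3 →* G := j.comp (MonoidHom.mk' F₀ fun a b => hinj _ (hF₀ _) _ (mul_mem (hF₀ _) (hF₀ _))
    (by rw [map_mul φ, eF₀, eF₀, eF₀, map_mul]))
  have hF : ∀ v, F v = j (F₀ v) := fun _ => rfl
  have hFi : Function.Injective F := fun a b e => hf (by rw [← eF₀, ← eF₀, hj (show j (F₀ a) = j (F₀ b) from e)])
  have hFr : ∀ q ∈ Q.map j, ∃ v, q = F v := by
    rintro _ ⟨q, hq, rfl⟩
    obtain ⟨v, e⟩ := hv q hq
    exact ⟨v, congrArg j (hinj _ hq _ (hF₀ v) (e.symm.trans (eF₀ v).symm))⟩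
  have hFa : ∀ {g : H} {M : V3 → V3}, (∀ x ∈ Q, g * x * g⁻¹ ∈ Q) → (∀ v, φ g * f v * (φ g)⁻¹ = f (M v)) →
      ∀ v, j g * F v * (j g)⁻¹ = F (M v) := fun hg h v => by
    rw [hF, hF, ← map_inv, ← map_mul, ← map_mul]
    exact congrArg j (hinj _ (hg _ (hF₀ _)) _ (hF₀ _) (by rw [hp, eF₀, eF₀, h]))
  obtain ⟨gs, hgs, es⟩ := hn' hc
  have hc9 : Nat.card (Q.map j) = 9 := by rw [card_map_of_injective hj, hQ9.1]
  obtain ⟨t, ⟨htP, htN⟩, htQ⟩ := SetLike.exists_of_lt (H4.lt_inf_normalizer P.isPGroup' (lt_of_le_of_ne hQP fun e => by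
    have := P.pow_dvd_card_of_pow_dvd_card (n := 3) F4
    rw [← e, hc9] at this
    omega))
  obtain ⟨k, hk⟩ := P.isPGroup' ⟨t, htP⟩
  have := no_transvection hFi (F5 F) (hFa hgs (es ▸ hc)) (hFa hgd hd) (t := t)
    (fun v => hFr _ ((mem_normalizer_iff.1 htN _).1 ⟨_, hF₀ v, rfl⟩)) (congrArg Subtype.val hk)
  refine htQ ((eq_of_le_of_card_ge (K := P ⊓ centralizer {j (gd * u * gd⁻¹)}) (le_inf hQP ?_) ?_).ge ⟨htP, ?_⟩)
  · rintro _ ⟨q, hq, rfl⟩ _ rfl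
    rw [← map_mul, ← map_mul, hab hq _ hwQ]
  · rw [hc9, ← card_inf_mul_relIndex D]
    exact Nat.mul_le_mul (F3 _ (hQP ⟨_, hwQ, rfl⟩) hw) (hrel inf_le_left)
  · obtain ⟨v, e⟩ := hFr _ ⟨_, hwQ, rfl⟩
    rintro _ rfl
    rw [e, eq_comm, ← mul_inv_eq_iff_eq_mul, this]

end Cfsg.Agent.H13
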